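import Cfsg.Agent.L0.CosetChain

/-! Generated coset table certificate. -/

set_option autoImplicit false
set_option maxRecDepth 100000

open Cfsg.Agent.L0

namespace Cfsg.Agent.H3.U62.Tc5

noncomputable def t0 : BT := .leaf (nat_lit 0x168455a6000000000000000001570000000386400000001c744da4000000000000000001c8000000028620000000146449380000000000000000022400000002861000000014502112000000000000000001a3000000027c1000000022444537000000000000000001360000000186000000001a301d1100000000000000000135000000017c000000001220180500000000000000000111000000012c00000000081010030000000000000000000200000000000)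

noncomputable def tree : BT := t0

noncomputable def row : ℕ → ℕ := rowOf tree (nat_lit 3) (nat_lit 7) (nat_lit 184) (nat_lit 0xffffffffffffffffffffffffffffffffffffffffffffff)

noncomputable def cols : List Col := [⟨nat_lit 44, nat_lit 0, [([nat_lit 44], nat_lit 0), ([nat_lit 124, nat_lit 44, nat_lit 124], nat_lit 0), ([nat_lit 134, nat_lit 44, nat_lit 134], nat_lit 0)]⟩,
  ⟨nat_lit 124, nat_lit 0, [([nat_lit 124], nat_lit 0), ([nat_lit 134, nat_lit 124, nat_lit 134], nat_lit 0)]⟩,
  ⟨nat_lit 134, nat_lit 0, [([nat_lit 134], nat_lit 0)]⟩,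
  ⟨nat_lit 144, nat_lit 1, [([nat_lit 44, nat_lit 144, nat_lit 44], nat_lit 0), ([nat_lit 124, nat_lit 144, nat_lit 124], nat_lit 0), ([nat_lit 134, nat_lit 144, nat_lit 134], nat_lit 0)]⟩]

noncomputable def erots : List (List ℕ × ℕ) := []

noncomputable def gens : List ℕ := [nat_lit 44, nat_lit 124, nat_lit 134, nat_lit 144]

noncomputable def chk : ℕ → Bool := chkRow0 row (nat_lit 8) (nat_lit 0xf) (nat_lit 0x70) (nat_lit 7) (nat_lit 0x7) (nat_lit 0) (nat_lit 0xf) (nat_lit 4) (nat_lit 0xff) (nat_lit 0x3000) [] cols gens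

theorem b0 : allR chk 3 0 = true := by decide +kernel

noncomputable def T : CT := ⟨row, nat_lit 8, nat_lit 8, nat_lit 0xf, nat_lit 0x70, nat_lit 7, nat_lit 0x7, nat_lit 0, nat_lit 0xf, nat_lit 4, nat_lit 0xff, nat_lit 0x3000, nat_lit 184, nat_lit 184, nat_lit 0, nat_lit 4, [], cols, erots, gens⟩

theorem all : ∀ c < 8, chk c = true := fun c hc =>
  allR_glue (d := 3) (n := 1) (forall_lt_succ' forall_lt_zero' b0) c (lt_of_lt_of_le hc (by norm_num))

/-- the relators used -/
def R : List (List ℕ) := [[nat_lit 3, nat_lit 3],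
  [nat_lit 11, nat_lit 11],
  [nat_lit 12, nat_lit 12],
  [nat_lit 3, nat_lit 13, nat_lit 3, nat_lit 13],
  [nat_lit 11, nat_lit 3, nat_lit 11, nat_lit 3],
  [nat_lit 11, nat_lit 13, nat_lit 11, nat_lit 13],
  [nat_lit 12, nat_lit 3, nat_lit 12, nat_lit 3],
  [nat_lit 12, nat_lit 11, nat_lit 12, nat_lit 11],
  [nat_lit 12, nat_lit 13, nat_lit 12, nat_lit 13]]

theorem cert : Cert T (R.map fun r => (r, 0)) ([13].map fun y => (y, 0)) 14 10 [3, 11, 12, 13] :=
  ⟨by decide +kernel, ⟨[[(0, 0), (4, 1), (6, 1)], [(1, 0), (7, 1)], [(2, 0)], [(3, 1), (5, 1), (8, 1)]], [], by decide +kernel⟩, by decide +kernel, Or.inl ⟨rfl, all⟩⟩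

theorem bound {Γ : Type*} [Group Γ] {x : ℕ → Γ} (hR : ∀ r ∈ R, ev x r = 1) {n : ℕ}
    (h : CardLe x [13] n) : CardLe x [3, 11, 12, 13] (8 * n) :=
  cert.cardLe rfl hR h

end Cfsg.Agent.H3.U62.Tc5
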