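import Cfsg.Agent.H3.Mu.U62.Tab
import Cfsg.Agent.H3.Mu.U62.Tc6
import Cfsg.Agent.H3.Mu.U62.Tc5
import Cfsg.Agent.H3.Mu.U62.Tc4
import Cfsg.Agent.H3.Mu.U62.Tc3
import Cfsg.Agent.H3.Mu.U62.Tc2
import Cfsg.Agent.H3.Mu.U62.Tc1
import Cfsg.Agent.H3.Mu.U62.Tc0

/-! Order, base and presentation. -/

set_option autoImplicit false
set_option maxRecDepth 100000

open Cfsg.Agent.L0

namespace Cfsg.Agent.H3.U62


theorem cardLe : CardLe (PG.gen 17 R) (List.range 17) 9196830720 :=
  cardLe_cast (Tc0.bound (rel_sub (R := R) (fun _ => PG.rel) (by decide +kernel))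
    (Tc1.bound (rel_sub (R := R) (fun _ => PG.rel) (by decide +kernel))
    (Tc2.bound (rel_sub (R := R) (fun _ => PG.rel) (by decide +kernel))
    (Tc3.bound (rel_sub (R := R) (fun _ => PG.rel) (by decide +kernel))
    (Tc4.bound (rel_sub (R := R) (fun _ => PG.rel) (by decide +kernel))
    (Tc5.bound (rel_sub (R := R) (fun _ => PG.rel) (by decide +kernel))
    (Tc6.bound (rel_sub (R := R) (fun _ => PG.rel) (by decide +kernel))
    (cardLe_nil _)))))))) (by decide +kernel) (by decide +kernel)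

theorem core {G : Type*} [Group G] {A : RAct G 693} {x : ℕ → G} (h : A.Tab x 17 T)
    (hb : A.IsBase Bf) (ht : genL x (List.range 17) = ⊤) : Core A x 17 T B R 9196830720 :=
  core_of h hb ht (by decide +kernel) (by decide +kernel) cardLe (chain h) (by decide +kernel)
    (by decide +kernel)

theorem core' {G : Type*} [Group G] (h : Model G 693 7 T Bf) :
    ∃ (A : RAct G 693) (x : ℕ → G), Core A x 17 T B R 9196830720 := by
  obtain ⟨A, g, h1, h2, h3⟩ := h
  obtain ⟨x, -, a1, a2⟩ := ext h1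
  exact ⟨A, x, core a1 h2 (a2.trans h3)⟩

end Cfsg.Agent.H3.U62
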