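import Cfsg.Agent.H3.Core2
import Cfsg.Agent.H3.Mu.U62.Core
import Cfsg.Agent.H3.Mu.U62.L0
import Cfsg.Agent.H3.Mu.U62.L1
import Cfsg.Agent.H3.Mu.U62.L2
import Cfsg.Agent.H3.Mu.U62.P2
import Cfsg.Agent.H3.Mu.U62.P3

/-! The Schur multiplier. -/

set_option autoImplicit false
set_option maxRecDepth 100000

open Cfsg.Agent.L0

namespace Cfsg.Agent.H3.U62


theorem schur {G : Type*} [Group G] (hm : Model G 693 7 T Bf) :
    Finite G ∧ Nat.card G = 9196830720 ∧ HasSchurMultiplier G (Multiplicative (ZMod 3 × ZMod 2 × ZMod 2)) := by
  obtain ⟨A, x, h⟩ := core' hm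
  haveI := h.fin
  have h2 := P2.pm h.base h.tab h.card
  have h3 := P3.pm h.base h.tab h.card
  have hr := pmult_rest h.card [] (by simp) (by decide +kernel) (by decide +kernel)
  exact ⟨h.fin, h.card, hasSchur_of (lower_three' h.pres L0rep L1rep L2rep
    [(105116192, 8), (-105116192, 13), (16247731794, 16), (174034, 17), (-105116192, 19), (16532943580, 20), (-4239454300, 21), (-4060431906, 22), (3868008944, 23), (58591252, 24), (-27323246, 25), (-2018758754, 33), (-2018758754, 35), (2018758754, 38), (-2018758754, 39), (26626737350, 43), (-36922467912, 44), (-31209990, 45), (10326940552, 46), (2018758754, 48), (-12112552524, 49), (12112552524, 50), (-2018758754, 52), (6323214, 53), (-16247731794, 54), (-2037554364, 55), (-14514184826, 56), (16543443598, 57), (4165548098, 58), (-4150929292, 59), (-35618840, 61), (244923046, 62), (18795610, 64), (-62594020, 65), (29295626, 66), (-6323214, 67), (4, 68), (-4, 69), (-58012, 70), (-1972378, 71), (1972380, 72), (62594020, 74), (-2186236922, 75), (174034, 76), (8295592, 77), (2204424, 78), (-174034, 81), (16247731794, 86), (-18368155074,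 87), (1413615522, 89), (-2, 92)]
    [(3501962634, 8), (-3501962634, 13), (541295766971, 16), (5797944, 17), (-3501962634, 19), (550797642970, 20), (-141238093760, 21), (-135273934362, 22), (128863332866, 23), (1951976927, 24), (-910278393, 25), (-67255268738, 33), (-67255268738, 35), (67255268738, 38), (-67255268738, 39), (887073986660, 43), (-1230077886634, 44), (-1039765870, 45), (344043665844, 46), (67255268738, 48), (-403531612428, 49), (403531612428, 50), (-67255268738, 52), (210658918, 53), (-541295766971, 54), (-67881447473, 55), (-483542374232, 56), (551147452721, 57), (138775896996, 58), (-138288869094, 59), (-1186647376, 61), (8159650219, 62), (626178735, 64), (-2085329717, 65), (975988458, 66), (-210658905, 67), (1, 68), (-1932648, 70), (-65710071, 71), (65710073, 72), (-5, 73), (2085329717, 74), (-72834830607, 75), (5797944, 76), (276368984, 77), (73440750, 78), (-5797944, 81), (-4, 82), (-1, 84), (3, 85), (541295766971, 86), (-611938005720, 87), (47094825826, 89), (10, 91)]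
    [(-85, 8), (85, 13), (-13039, 16), (85, 19), (-13270, 20), (3404, 21), (3257, 22), (-3103, 23), (-46, 24), (22, 25), (1620, 33), (1620, 35), (-1620, 38), (1620, 39), (-21370, 43), (29634, 44), (23, 45), (-8287, 46), (-1620, 48), (9720, 49), (-9720, 50), (1620, 52), (-5, 53), (13039, 54), (1635, 55), (11650, 56), (-13279, 57), (-3342, 58), (3331, 59), (28, 61), (-198, 62), (-15, 64), (48, 65), (-23, 66), (5, 67), (1, 71), (-1, 72), (-48, 74), (1755, 75), (-6, 77), (-2, 78), (-13039, 86), (14743, 87), (-1136, 89)]
    (by decide +kernel) (by decide +kernel) (by decide +kernel) (by decide +kernel))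
    (upper_three_two_two (k := 1) rfl h2 h3 hr)⟩

end Cfsg.Agent.H3.U62
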